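import Mathlib
import Cfsg.Agent.Lib.LieAll.Main
import Cfsg.Agent.Lib.BN.Steinberg

/-!
The Steinberg character of a finite group of Lie type.
-/

set_option autoImplicit false

namespace CfsgLib.LieAll

open Cfsg CfsgLib.RGD CfsgLib.Twist

/-- existence of a Steinberg character -/
def HasSt (p : ℕ) (G : Type*) [Group G] : Prop :=
  ∃ χ : G → ℂ, IsIrrCharacter G χ ∧ ∀ P : Sylow p G, χ 1 = Nat.card P ∧ ∀ x : G, x ∈ P → x ≠ 1 → χ x = 0

theorem HasSt.of_equiv {p : ℕ} [Fact p.Prime] {G H : Type*} [Group G] [Group H] [Finite G] (h : HasSt p H)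
    (e : G ≃* H) : HasSt p G := by
  obtain ⟨χ, h1, h2⟩ := h
  refine ⟨_, CfsgLib.Char.isIrr_comp_of_surjective e.toMonoidHom e.surjective h1, fun P => ?_⟩
  obtain ⟨h4, h5⟩ := h2 (P.mapSurjective (f := e.toMonoidHom) e.surjective)
  refine ⟨?_, fun x hx h => h5 _ (Subgroup.mem_map_of_mem e.toMonoidHom hx) (by simpa using h)⟩
  rw [map_one, h4]
  congr 1
  exact Subgroup.card_map_of_injective e.injective

variable {ι κ B : Type} [Fintype κ] [DecidableEq κ] {Φ : RootSys ι κ}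
  {F : Type*} [Field F] {G : Type*} [Group G] {S : StSys Φ F G} {T : Tw S B} {M : Subgroup G}

theorem hasSt_of_isTw [Finite ι] [Finite F] [Finite G] (hM : IsTw T M) (p : ℕ) [Fact p.Prime] [CharP F p] :
    HasSt p M := by
  have hS := hM.sharp
  obtain ⟨n, h1, h2, h3⟩ := hM.exists_n0
  refine BN.exists_steinberg (P := hM.bn) (hM.sylow p) (fun u hu => ⟨U_le_B S hu.1, u.2⟩) (fun b hb => ?_) ?_
    (n := (⟨n, h2⟩ : M)⁻¹) (inv_mem ⟨h1, h2⟩) fun b hb h => ?_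
  · obtain ⟨u, hu, h, hh, e⟩ := hM.mem_B hb.1 b.2
    exact ⟨⟨u, hM.U_le hu⟩, ⟨hu.1, hM.U_le hu⟩, ⟨h, hh.2⟩, ⟨⟨H_le_B S hh.1, hh.2⟩, H_le_N S hh.1, hh.2⟩,
      Subtype.ext e⟩
  · rw [← Subgroup.card_map_of_injective M.subtype_injective]
    refine hS.not_dvd_card_H p ?_
    rintro _ ⟨x, hx, rfl⟩
    exact hS.mem_H_of_mem_B_N hx.1.1 hx.2.1
  · obtain ⟨u, hu, k, hk, e⟩ := hM.mem_B (b := b) hb.1 b.2
    have h4 : n * b * n⁻¹ ∈ S.B := by simpa using h.1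
    have h5 := hS.eq_one_of_mem_B_V (by
      have := mul_mem h4 (inv_mem (H_le_B S (hS.conj_mem_H h1 hk.1)))
      rw [e] at this
      simpa [mul_assoc] using this) (IsTw.conj_U_of_w0 h3 hu.1)
    refine ⟨?_, b.2⟩
    change (b : G) ∈ S.N
    rw [e, conj_eq_one_iff.1 h5, one_mul]
    exact H_le_N S hk.1

theorem hasSt_of_isLieTypeChar {p : ℕ} [Fact p.Prime] {X : Type*} [Group X] [Finite X]
    (h : IsLieTypeChar p X) : HasSt p X := by
  obtain ⟨D, ⟨e⟩, -⟩ := exists_mdl h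
  exact (hasSt_of_isTw D.good.tw p).of_equiv e

end CfsgLib.LieAll
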